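import Cfsg.Agent.Mrg.Omega.NO3b.FPB.SymIn
import Cfsg.Agent.Mrg.Omega.SQ1.BauDat
import Cfsg.Agent.Mrg.Omega.SQ1.BauSMin
import Cfsg.Agent.PushGen.KillEnd

/-!
# Minimal parabolics and the pushing up data

`Cf R P`: `P` is a minimal parabolic over its Sylow 2-subgroup `R`, of characteristic two, and no
nontrivial subgroup of `R` is normalised by `N(R)` and by `P`.  The FF theorem gives a Baumann block
`L ≤ P` and pushing up data `Dt (N(R)) L ...` (`Cf.exists_dt`).

(helper54, for S1823.)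
-/

set_option autoImplicit false
set_option linter.unusedSectionVars false

namespace Cfsg.Agent.PushGen

open Subgroup Cfsg Cfsg.Agent.PLocal.ThompsonJ Cfsg.Agent.ZN Cfsg.Agent.ZN.ChoiceBase
open Cfsg.Agent.ZN.ChoiceSit
open Cfsg.Agent.Omega.SQ1 (BauK.InK BauK.BlkK relIndex_eq_of_card)
open Cfsg.Agent.Omega.SQ1.FFOne (MinH minH_of exists_inK mem_norm_of conj_mem_of_norm)
open Cfsg.Agent.Omega.SQ1.VOf (zc_norm zc_le_zl zl_norm)
open Cfsg.Agent.Omega.NO3b.FPB (SymIn.exists_off SymIn.main)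
open Cfsg.Agent.Omega.FrameFF (cv)
open Cfsg.Agent.Omega (FFThm.Stmt)
open Cfsg.Agent.MinSimple.MinParabolic (IsMinPar)
open scoped commutatorElement

universe u

variable {G : Type u} [Group G]

/-- The configuration. -/
structure Cf (R P : Subgroup G) : Prop where
  syl : Syl R P
  mp : IsMinPar R P
  sc : P ⊓ centralizer (o2 P : Set G) ≤ o2 P
  ne : R ≠ ⊥
  char : ∀ K : Subgroup G, K ≤ R → normalizer (R : Set G) ≤ normalizer (K : Set G) →
    P ≤ normalizer (K : Set G) → K = ⊥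

namespace Cf

variable {R P : Subgroup G}

theorem minH (c : Cf R P) [Finite G] : MinH P R := minH_of c.syl c.mp c.sc

/-- an involution in a nontrivial 2-group, with a property stable under squares -/
theorem exists_inv {R : Subgroup G} (h2 : IsPGroup 2 R) (p : G → Prop)
    (hp : ∀ x, p x → p (x ^ 2)) {x : G} (hxR : x ∈ R) (hx : x ≠ 1) (hpx : p x) :
    ∃ y ∈ R, y ≠ 1 ∧ y ^ 2 = 1 ∧ p y := by
  obtain ⟨n, hn⟩ := h2 ⟨x, hxR⟩
  have hn' : x ^ 2 ^ n = 1 := by simpa using congrArg Subtype.val hn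
  clear hn
  induction n generalizing x with
  | zero => exact absurd (by simpa using hn') hx
  | succ n ih =>
    by_cases hxx : x ^ 2 = 1
    · exact ⟨x, hxR, hx, hxx, hpx⟩
    · exact ih (R.pow_mem hxR 2) hxx (hp x hpx) (by rw [← pow_mul, ← pow_succ']; exact hn')

theorem jj_ne (c : Cf R P) [Finite G] : jj R ≠ ⊥ := by
  intro h0
  obtain ⟨A, hA⟩ := AA_nonempty R
  have h2 : A = ⊥ := by
    rw [eq_bot_iff, ← h0]
    exact le_jj hA
  obtain ⟨x, hx1, hx2⟩ : ∃ x ∈ R, x ≠ 1 := by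
    by_contra hc
    push Not at hc
    exact c.ne (eq_bot_iff.2 fun x hx => mem_bot.2 (hc x hx))
  obtain ⟨y, hyR, hy1, hy2, -⟩ := exists_inv c.syl.2.1 (fun _ => True) (fun _ _ => trivial) hx1 hx2
    trivial
  have h3 := hA.2.2 (zpowers y) (Cfsg.Agent.PLocal.ElemAbSup.isElementaryAbelian_zpowers hy2) (zpowers_le.2 hyR)
  rw [h2, Subgroup.card_bot] at h3
  have h4 : Nat.card (zpowers y) ≠ 1 := by
    rw [Nat.card_zpowers]
    exact fun h => hy1 (orderOf_eq_one_iff.1 h)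
  have h5 : 0 < Nat.card (zpowers y) := Nat.card_pos
  omega

/-- `J(R) ≰ O₂(P)` -/
theorem nle (c : Cf R P) [Finite G] : ¬ jj R ≤ o2 P := by
  intro hle
  have h1 : jj (o2 P) = jj R := jj_eq_of_jj_le hle (o2_le_syl c.syl)
  apply c.jj_ne
  refine c.char _ (jj_le R) (normalizer_le_of_cj (F := fun K => jj K) jj_cj R) ?_
  rw [← h1]
  exact (le_normalizer_o2 P).trans (normalizer_le_of_cj (F := fun K => jj K) jj_cj (o2 P))

theorem zc_ne (c : Cf R P) [Finite G] : zc R ≠ ⊥ := by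
  have : Fact (Nat.Prime 2) := ⟨Nat.prime_two⟩
  have : Nontrivial R := (Subgroup.nontrivial_iff_ne_bot R).2 c.ne
  have h1 := c.syl.2.1.center_nontrivial
  obtain ⟨⟨z, hz⟩, hz1⟩ := exists_ne (1 : center R)
  have hzT := mem_center_iff.1 hz
  have hz1' : (z : G) ≠ 1 := fun e => hz1 (Subtype.ext (Subtype.ext e))
  obtain ⟨y, hyR, hy1, hy2, hyc⟩ := exists_inv c.syl.2.1 (fun x => ∀ y ∈ R, y * x = x * y)
    (fun x hx y hy => ((show Commute y x from hx y hy).pow_right 2).eq) z.2 hz1' (fun y hy => by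
      have := hzT ⟨y, hy⟩
      exact congrArg Subtype.val this)
  intro h0
  have hy : y ∈ zc R := ChoiceBase.mem_zc.2 ⟨hyR, hy2, hyc⟩
  rw [h0] at hy
  exact hy1 (mem_bot.1 hy)

/-- `C_P(V) R ≠ P` -/
theorem cent_sup_ne (c : Cf R P) [Finite G] :
    (P ⊓ centralizer (zl R P : Set G)) ⊔ R ≠ P := by
  intro e
  apply c.zc_ne
  refine c.char _ (fun z hz => (ChoiceBase.mem_zc.1 hz).1)
    (fun x hx => mem_norm_of fun z hz => zc_norm hx hz) ?_
  rw [← e]
  refine sup_le ?_ ?_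
  · rintro x ⟨hx, hxc⟩
    refine mem_norm_of fun z hz => ?_
    have := mem_centralizer_iff.1 hxc z (zc_le_zl hz)
    have e : x * z * x⁻¹ = z := by rw [← this]; group
    rwa [e]
  · intro t ht
    refine mem_norm_of fun z hz => ?_
    have e : t * z * t⁻¹ = z := by rw [(ChoiceBase.mem_zc.1 hz).2.2 t ht]; group
    rwa [e]

end Cf

end Cfsg.Agent.PushGen
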